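import Mathlib

/-! Piece [tE2a] of the farm for S2153. -/

set_option autoImplicit false

namespace Cfsg.Agent.Lib.Helper1.MinSU2

/-- [tE2a] five involutions with product one -/
theorem five_abs {A ι : Type*} [CommGroup A] [Fintype ι] [DecidableEq ι]
    (hι : Fintype.card ι = 5) (t : ι → A) (hsq : ∀ i, t i * t i = 1) (hprod : ∏ i, t i = 1)
    (K : Subgroup A) (h0 : ∀ i, t i ∉ K) (h : ∀ i, ∃ j, j ≠ i ∧ t i * t j ∈ K) : False := by
  classical
  have hsymm : ∀ i j, t i * t j ∈ K → t j * t i ∈ K := fun i j h => by rwa [mul_comm]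
  have hT : ∀ i j k, t i * t j ∈ K → t i * t k ∈ K → t j * t k ∈ K := by
    intro i j k h1 h2
    have : t j * t k = (t i * t j) * (t i * t k) := by
      calc t j * t k = (t i * t i) * (t j * t k) := by rw [hsq, one_mul]
        _ = _ := by rw [mul_mul_mul_comm]
    rw [this]
    exact K.mul_mem h1 h2
  have hDD : ∀ i j k l, i ≠ j → i ≠ k → i ≠ l → j ≠ k → j ≠ l → k ≠ l →
      t i * t j ∈ K → t k * t l ∈ K → False := by
    intro i j k l hij hik hil hjk hjl hkl h1 h2
    have n1 : i ∉ ({j, k, l} : Finset ι) := by simp [hij, hik, hil]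
    have n2 : j ∉ ({k, l} : Finset ι) := by simp [hjk, hjl]
    have n3 : k ∉ ({l} : Finset ι) := by simp [hkl]
    set s : Finset ι := {i, j, k, l} with hs
    have hcs : s.card = 4 := by
      rw [hs, Finset.card_insert_of_notMem n1, Finset.card_insert_of_notMem n2,
        Finset.card_insert_of_notMem n3, Finset.card_singleton]
    have hc : sᶜ.card = 1 := by rw [Finset.card_compl, hι, hcs]
    obtain ⟨m, hm⟩ := Finset.card_eq_one.1 hc
    have hp : (∏ x ∈ s, t x) * ∏ x ∈ sᶜ, t x = 1 := by rw [Finset.prod_mul_prod_compl, hprod]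
    rw [hm, Finset.prod_singleton, hs, Finset.prod_insert n1, Finset.prod_insert n2,
      Finset.prod_insert n3, Finset.prod_singleton] at hp
    apply h0 m
    have : t m = ((t i * t j) * (t k * t l))⁻¹ := by
      rw [eq_inv_iff_mul_eq_one, ← hp, mul_comm, mul_assoc (t i) (t j)]
    rw [this]
    exact K.inv_mem (K.mul_mem h1 h2)
  have hne : Nonempty ι := Fintype.card_pos_iff.1 (by omega)
  obtain ⟨i0⟩ := hne
  obtain ⟨a, ha, hPa⟩ := h i0
  obtain ⟨i, hi0, hia, hPi⟩ : ∃ i, i ≠ i0 ∧ i ≠ a ∧ t i0 * t i ∉ K := by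
    by_contra hcon
    push Not at hcon
    have hc2 : ({i0, a} : Finset ι).card = 2 := Finset.card_pair ha.symm
    have hc3 : 1 < (({i0, a} : Finset ι)ᶜ).card := by rw [Finset.card_compl, hι, hc2]; norm_num
    obtain ⟨b, hb, c, hc, hbc⟩ := Finset.one_lt_card.1 hc3
    simp only [Finset.mem_compl, Finset.mem_insert, Finset.mem_singleton, not_or] at hb hc
    exact hDD i0 a b c ha.symm (Ne.symm hb.1) (Ne.symm hc.1) (Ne.symm hb.2) (Ne.symm hc.2) hbc hPa
      (hT i0 b c (hcon b hb.1 hb.2) (hcon c hc.1 hc.2))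
  obtain ⟨j, hj, hPj⟩ := h i
  by_cases hj0 : j = i0
  · subst hj0
    exact hPi (hsymm _ _ hPj)
  by_cases hja : j = a
  · subst hja
    exact hPi (hT j i0 i (hsymm _ _ hPa) (hsymm _ _ hPj))
  exact hDD i0 a i j ha.symm (Ne.symm hi0) (Ne.symm hj0) (Ne.symm hia) (Ne.symm hja) (Ne.symm hj)
    hPa hPj

end Cfsg.Agent.Lib.Helper1.MinSU2
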