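import Mathlib
import Cfsg.Agent.Lib.Helper80.MinSU2.Defs
import Cfsg.Agent.Lib.Helper75.MinSU.WBI

/-! Piece [tWBI] of the farm for S2153 (adapted from helper75's WBI). -/

set_option autoImplicit false

namespace Cfsg.Agent.Lib.Helper1.MinSU2

open Matrix Cfsg.Agent.Lib.Helper13 Cfsg.Agent.Lib.Helper5 Cfsg.Agent.Lib.Helper57.RootSU
  Cfsg.Agent.Lib.Helper83.MinSU Cfsg.Agent.Lib.Helper80.MinSU2
open Cfsg.Agent.Lib.Helper8.MinSU Cfsg.Agent.Lib.Helper15.MinSU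

variable {F : Type*} [Field F] [Fintype F] {m n : ℕ}

/-- `N_(m+2) ≤ 2^(m+1) ME_m`. -/
lemma arith_wbi_t (m N' E : ℕ) (hm : 6 ≤ m)
    (h1 : N' * (2 ^ 2 - 1) = (2 ^ (m + 2) - 1) * (2 ^ (m + 2 - 1) + 1))
    (h2 : 2 ^ (m - 1) * (2 ^ m - 1) ≤ 3 * E + 2) : N' ≤ 2 ^ (m + 1) * E := by
  obtain ⟨k, rfl⟩ : ∃ k, m = k + 6 := ⟨m - 6, by omega⟩
  obtain ⟨a, ha⟩ : ∃ a, a = 2 ^ (k + 5) := ⟨_, rfl⟩
  have e1 : 2 ^ (k + 6 + 2) = 8 * a := by rw [ha]; ring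
  have e2 : 2 ^ (k + 6 + 2 - 1) = 4 * a := by
    rw [ha, show k + 6 + 2 - 1 = k + 5 + 2 by omega]; ring
  have e3 : 2 ^ (k + 6 - 1) = a := by rw [ha]; rfl
  have e4 : 2 ^ (k + 6) = 2 * a := by rw [ha]; ring
  have e5 : 2 ^ (k + 6 + 1) = 4 * a := by rw [ha]; ring
  have ha3 : 32 ≤ a := by
    rw [ha]
    calc 32 = 2 ^ 5 := by norm_num
      _ ≤ 2 ^ (k + 5) := Nat.pow_le_pow_right (by omega) (by omega)
  rw [e1, e2] at h1
  rw [e3, e4] at h2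
  rw [e5]
  have h8 : 1 ≤ 8 * a := by omega
  have h2a : 1 ≤ 2 * a := by omega
  norm_num at h1
  zify [h8, h2a] at h1 h2 ⊢
  have hA : (32 : ℤ) ≤ a := by exact_mod_cast ha3
  generalize (a : ℤ) = A at *
  generalize (N' : ℤ) = M at *
  generalize (E : ℤ) = X at *
  have t1 : 4 * A * (A * (2 * A - 1)) ≤ 4 * A * (3 * X + 2) :=
    mul_le_mul_of_nonneg_left h2 (by linarith)
  have t2 : 32 * A ^ 2 ≤ A * A ^ 2 := mul_le_mul_of_nonneg_right hA (by positivity)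
  nlinarith

/-- [tWBI] -/
theorem wb_of_ih (hF : Fintype.card F = 2 ^ 2) (hm : 6 ≤ m) (he : Even m)
    (IH : ∀ R : Subgroup (Cfsg.SU m F 2), R ≠ ⊤ → ME m ≤ R.index) : WB F 2 m := by
  intro D R hD0 hDq _ hR
  obtain ⟨s, hs0, hs⟩ := exists_skew_q hF
  have hcard : Nat.card D ^ 2 ≤ 2 ^ (2 * m) := by
    apply iso_lemma hF ⊥ ⟨s, hs, by simpa using hs0⟩ D
    intro w hw w' hw'
    rw [AddSubgroup.mem_bot, ← hermForm_swap hF w w', hDq w hw w' hw', sub_self]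
  have hcard' : Nat.card D ≤ 2 ^ m := by
    have : Nat.card D ^ 2 ≤ (2 ^ m) ^ 2 := by rw [← pow_mul, mul_comm m 2]; exact hcard
    exact (Nat.pow_le_pow_iff_left (by norm_num)).1 this
  have hRtop : R ≠ ⊤ := by
    rintro rfl
    obtain ⟨w, hw, hw0⟩ : ∃ w ∈ D, w ≠ 0 := by
      by_contra hcon
      push Not at hcon
      exact hD0 ((AddSubgroup.eq_bot_iff_forall D).2 hcon)
    have := big_lemma hF (by omega) D w hw hw0
      (fun y _ _ => ⟨s, hs0, hs, fun z hz => hR _ (Subgroup.mem_top _) z hz⟩)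
    omega
  have hidx := IH R hRtop
  have hE : 2 ^ (m - 1) * (2 ^ m - 1) ≤ 3 * ME m + 2 := by
    unfold ME
    omega
  have hN := arith_wbi_t m (NU 2 (m + 2)) (ME m) hm
    (NU_mul (le_refl 2) (he.add (by decide))) hE
  calc Nat.card D * NU 2 (m + 2) ≤ 2 ^ m * (2 ^ (m + 1) * ME m) := Nat.mul_le_mul hcard' hN
    _ = 2 ^ (2 * m + 1) * ME m := by ring
    _ ≤ 2 ^ (2 * m + 1) * R.index := Nat.mul_le_mul_left _ hidx

end Cfsg.Agent.Lib.Helper1.MinSU2
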